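import Cfsg.Agent.ClassO.Main
import Cfsg.Agent.ClassSp.Basic

/-!
In characteristic two the isometry group of the odd-dimensional form is the symplectic group.
-/

set_option autoImplicit false

namespace Cfsg.Agent.ClassO

open QuadraticMap Cfsg.Agent.Orth ClassSp

section

variable {F : Type*} [Field F] (m : ℕ)

/-- The odd-dimensional space. -/
abbrev VV (m : ℕ) (F : Type*) := Unit ⊕ (Fin m ⊕ Fin m) → F

/-- Restriction to the hyperbolic coordinates. -/
def prU : (Unit ⊕ (Fin m ⊕ Fin m) → F) →ₗ[F] (Fin m ⊕ Fin m → F) :=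
  LinearMap.funLeft F F Sum.inr

theorem prU_apply (v : Unit ⊕ (Fin m ⊕ Fin m) → F) (i : Fin m ⊕ Fin m) :
    prU m v i = v (Sum.inr i) := rfl

/-- Assemble a vector. -/
def mkV : (F × (Fin m ⊕ Fin m → F)) →ₗ[F] (Unit ⊕ (Fin m ⊕ Fin m) → F) where
  toFun p := Sum.elim (fun _ => p.1) p.2
  map_add' p q := by
    funext i
    rcases i with i | i <;> rfl
  map_smul' c p := by
    funext i
    rcases i with i | i <;> rfl

theorem mkV_inl (p : F × (Fin m ⊕ Fin m → F)) : mkV m p (Sum.inl ()) = p.1 := rfl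

theorem prU_mkV (p : F × (Fin m ⊕ Fin m → F)) : prU m (mkV m p) = p.2 := rfl

theorem mkV_eta (v : Unit ⊕ (Fin m ⊕ Fin m) → F) : mkV m (v (Sum.inl ()), prU m v) = v := by
  funext i
  rcases i with ⟨⟩ | i <;> rfl

theorem ext_V {v w : Unit ⊕ (Fin m ⊕ Fin m) → F} (h1 : v (Sum.inl ()) = w (Sum.inl ()))
    (h2 : prU m v = prU m w) : v = w := by
  rw [← mkV_eta m v, ← mkV_eta m w, h1, h2]

theorem qfOdd_eq (v : Unit ⊕ (Fin m ⊕ Fin m) → F) :
    qfOdd m F v = v (Sum.inl ()) ^ 2 + qfPlus m F (prU m v) := rfl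

theorem polar_odd_two (h2 : (2 : F) = 0) (u v : Unit ⊕ (Fin m ⊕ Fin m) → F) :
    polar (qfOdd m F) u v = sf (prU m u) (prU m v) := by
  rw [polar_qfOdd, h2, sf]
  simp only [zero_mul, zero_add, prU_apply]
  refine Finset.sum_congr rfl fun i _ => ?_
  linear_combination v (Sum.inr (Sum.inl i)) * u (Sum.inr (Sum.inr i)) * h2

theorem polar_plus_two (h2 : (2 : F) = 0) (u v : Fin m ⊕ Fin m → F) :
    polar (qfPlus m F) u v = sf u v := by
  rw [polar_qfPlus, sf]
  refine Finset.sum_congr rfl fun i _ => ?_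
  linear_combination v (Sum.inl i) * u (Sum.inr i) * h2

theorem sq_inj_two (h2 : (2 : F) = 0) {a b : F} (h : a ^ 2 = b ^ 2) : a = b := by
  have : (a - b) ^ 2 = 0 := by linear_combination h + (b ^ 2 - a * b) * h2
  exact sub_eq_zero.1 (pow_eq_zero_iff two_ne_zero |>.1 this)

theorem map_rad (h2 : (2 : F) = 0) (g : OGrp (qfOdd m F)) (c : F) :
    (g : VV m F ≃ₗ[F] VV m F) (mkV m (c, 0)) = mkV m (c, 0) := by
  have h1 : prU m ((g : VV m F ≃ₗ[F] VV m F) (mkV m (c, 0))) = 0 := by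
    apply eq_zero_of_sf
    intro u
    have h3 : sf u (prU m ((g : VV m F ≃ₗ[F] VV m F) (mkV m (c, 0))))
        = polar (qfOdd m F) (mkV m (0, u)) ((g : VV m F ≃ₗ[F] VV m F) (mkV m (c, 0))) := by
      rw [polar_odd_two m h2]; rfl
    rw [h3, ← coe_apply_inv_self g (mkV m (0, u)), OGrp_polar, polar_odd_two m h2, prU_mkV, sf_zero_right]
  refine ext_V m (sq_inj_two h2 ?_) h1
  have h4 := OGrp_q g (mkV m (c, 0))
  rw [qfOdd_eq, qfOdd_eq, h1, prU_mkV] at h4
  simpa using h4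

theorem prU_map (h2 : (2 : F) = 0) (g : OGrp (qfOdd m F)) (v : Unit ⊕ (Fin m ⊕ Fin m) → F) :
    prU m ((g : VV m F ≃ₗ[F] VV m F) v) = prU m ((g : VV m F ≃ₗ[F] VV m F) (mkV m (0, prU m v))) := by
  have h1 : v = mkV m (0, prU m v) + mkV m (v (Sum.inl ()), 0) := by
    rw [← map_add]
    conv_lhs => rw [← mkV_eta m v]
    simp
  conv_lhs => rw [h1, map_add, map_rad m h2, map_add, prU_mkV]
  simp

/-- The induced linear map. -/
def indLin (g : OGrp (qfOdd m F)) : (Fin m ⊕ Fin m → F) →ₗ[F] (Fin m ⊕ Fin m → F) :=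
  prU m ∘ₗ ((g : VV m F ≃ₗ[F] VV m F) : VV m F →ₗ[F] VV m F) ∘ₗ mkV m ∘ₗ LinearMap.inr F F _

theorem indLin_apply (g : OGrp (qfOdd m F)) (v : Fin m ⊕ Fin m → F) :
    indLin m g v = prU m ((g : VV m F ≃ₗ[F] VV m F) (mkV m (0, v))) := rfl

theorem indLin_prU (h2 : (2 : F) = 0) (g : OGrp (qfOdd m F)) (v : Unit ⊕ (Fin m ⊕ Fin m) → F) :
    indLin m g (prU m v) = prU m ((g : VV m F ≃ₗ[F] VV m F) v) := by
  rw [indLin_apply, ← prU_map m h2]

theorem indLin_sf (h2 : (2 : F) = 0) (g : OGrp (qfOdd m F)) (u v : Fin m ⊕ Fin m → F) :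
    sf (indLin m g u) (indLin m g v) = sf u v := by
  rw [indLin_apply, indLin_apply, ← polar_odd_two m h2, OGrp_polar, polar_odd_two m h2, prU_mkV,
    prU_mkV]

/-- The homomorphism to the symplectic group. -/
noncomputable def toSp (h2 : (2 : F) = 0) :
    OGrp (qfOdd m F) →* Matrix.symplecticGroup (Fin m) F where
  toFun g := ofLin (indLin m g) (indLin_sf m h2 g)
  map_one' := by
    apply ext_vec
    intro v
    rw [ofLin_mulVec, one_mulVec', indLin_apply]
    rfl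
  map_mul' g h := by
    apply ext_vec
    intro v
    rw [ofLin_mulVec, mul_mulVec, ofLin_mulVec, ofLin_mulVec, indLin_apply m h, indLin_prU m h2]
    rfl

theorem toSp_mulVec (h2 : (2 : F) = 0) (g : OGrp (qfOdd m F)) (v : Fin m ⊕ Fin m → F) :
    ((toSp m h2 g : Matrix.symplecticGroup (Fin m) F) : Matrix (Fin m ⊕ Fin m) (Fin m ⊕ Fin m) F).mulVec v
      = indLin m g v :=
  ofLin_mulVec (indLin m g) (indLin_sf m h2 g) v

theorem toSp_injective (h2 : (2 : F) = 0) : Function.Injective (toSp m h2) := by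
  rw [injective_iff_map_eq_one]
  intro g hg
  refine OGrp_ext fun v => ?_
  have h1 : ∀ v, prU m ((g : VV m F ≃ₗ[F] VV m F) v) = prU m v := by
    intro v
    rw [← indLin_prU m h2, ← toSp_mulVec m h2, hg, one_mulVec']
  refine ext_V m (sq_inj_two h2 ?_) (h1 v)
  have h4 := OGrp_q g v
  rw [qfOdd_eq, qfOdd_eq, h1] at h4
  exact add_right_cancel h4

theorem toSp_surjective [Finite F] (h2 : (2 : F) = 0) : Function.Surjective (toSp m h2) := by
  have : CharP F 2 := CharTwo.of_one_ne_zero_of_two_eq_zero one_ne_zero h2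
  have : Fact (Nat.Prime 2) := ⟨Nat.prime_two⟩
  intro S
  set s : (Fin m ⊕ Fin m → F) →ₗ[F] (Fin m ⊕ Fin m → F) :=
    Matrix.mulVecLin (S : Matrix (Fin m ⊕ Fin m) (Fin m ⊕ Fin m) F) with hs
  have hsv : ∀ v, s v = (S : Matrix (Fin m ⊕ Fin m) (Fin m ⊕ Fin m) F).mulVec v := fun v => rfl
  have hsf : ∀ u v, sf (s u) (s v) = sf u v := fun u v => by rw [hsv, hsv, sf_mulVec]
  have hadd : ∀ u v, qfPlus m F (u + v) + qfPlus m F (s (u + v))
      = (qfPlus m F u + qfPlus m F (s u)) + (qfPlus m F v + qfPlus m F (s v)) := by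
    intro u v
    rw [s.map_add, qadd, qadd, polar_plus_two m h2, polar_plus_two m h2, hsf]
    linear_combination sf u v * h2
  have hsq : ∀ x : F, ((frobeniusEquiv F 2).symm x) ^ 2 = x := by
    intro x
    have := (frobeniusEquiv F 2).apply_symm_apply x
    rwa [frobeniusEquiv_apply] at this
  let r : (Fin m ⊕ Fin m → F) →ₗ[F] F :=
    { toFun := fun v => (frobeniusEquiv F 2).symm (qfPlus m F v + qfPlus m F (s v))
      map_add' := fun u v => by rw [hadd, map_add]
      map_smul' := fun c v => by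
        apply sq_inj_two h2
        rw [RingHom.id_apply, smul_eq_mul, mul_pow, hsq, hsq, s.map_smul, qsmul, qsmul]
        ring }
  have hr : ∀ v, (r v) ^ 2 = qfPlus m F v + qfPlus m F (s v) := fun v => hsq _
  let G : (Unit ⊕ (Fin m ⊕ Fin m) → F) →ₗ[F] (Unit ⊕ (Fin m ⊕ Fin m) → F) :=
    mkV m ∘ₗ (LinearMap.prod (LinearMap.proj (Sum.inl ()) + r ∘ₗ prU m) (s ∘ₗ prU m))
  have hG : ∀ v, G v = mkV m (v (Sum.inl ()) + r (prU m v), s (prU m v)) := fun v => rfl
  have hQ : ∀ v, qfOdd m F (G v) = qfOdd m F v := by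
    intro v
    rw [hG, qfOdd_eq, qfOdd_eq, mkV_inl, prU_mkV]
    have := hr (prU m v)
    change (v (Sum.inl ()) + r (prU m v)) ^ 2 + _ = _
    linear_combination this + (v (Sum.inl ()) * r (prU m v) + qfPlus m F (s (prU m v))) * h2
  have hinj : Function.Injective G := by
    rw [injective_iff_map_eq_zero]
    intro v hv
    have h1 : prU m (G v) = 0 := by rw [hv, map_zero]
    rw [hG, prU_mkV] at h1
    have h3 : prU m v = 0 := by
      apply eq_zero_of_sf
      intro u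
      rw [← hsf u]
      have h1' : s (prU m v) = 0 := h1
      rw [h1', sf_zero_right]
    have h4 : G v (Sum.inl ()) = 0 := by rw [hv]; rfl
    rw [hG, mkV_inl, h3, map_zero, add_zero] at h4
    exact ext_V m h4 (by rw [h3, map_zero])
  refine ⟨⟨LinearEquiv.ofInjectiveEndo G hinj, fun v => hQ v⟩, ?_⟩
  apply ext_vec
  intro v
  rw [toSp_mulVec, indLin_apply]
  change prU m (G (mkV m (0, v))) = _
  rw [hG, prU_mkV]
  rfl

/-- `O_{2m+1}(q) ≅ Sp_{2m}(q)` for `q` even. -/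
theorem orth_sp_iso [Finite F] (h2 : (2 : F) = 0) :
    Nonempty (Cfsg.isometryGroup F (Cfsg.quadFormOdd m F) ≃* Matrix.symplecticGroup (Fin m) F) :=
  ⟨(bridge (qfOdd m F)).trans
    (MulEquiv.ofBijective (toSp m h2) ⟨toSp_injective m h2, toSp_surjective m h2⟩)⟩

end

end Cfsg.Agent.ClassO
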