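import Cfsg.Agent.ClassO.Iso6
import Cfsg.Agent.ClassSp.Order

/-!
`PΩ₅(q) ≅ PSp₄(q)`, `q` odd.
-/

set_option autoImplicit false

namespace Cfsg.Agent.ClassO

open QuadraticMap Cfsg.Agent.Orth ClassSp

section Five

variable (F : Type*) [Field F]

/-- The symplectic group. -/
abbrev G5 := Matrix.symplecticGroup (Fin 2) F

/-- The matrix of a symplectic transformation, indexed by `Fin 4`. -/
def m5 (g : Matrix (Fin 2 ⊕ Fin 2) (Fin 2 ⊕ Fin 2) F) : Matrix (Fin 4) (Fin 4) F :=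
  Matrix.reindexAlgEquiv F F (finSumFinEquiv (m := 2) (n := 2)) g

theorem m5_mul (g h : Matrix (Fin 2 ⊕ Fin 2) (Fin 2 ⊕ Fin 2) F) : m5 F (g * h) = m5 F g * m5 F h :=
  map_mul (Matrix.reindexAlgEquiv F F (finSumFinEquiv (m := 2) (n := 2))) g h

theorem m5_one : m5 F 1 = 1 :=
  map_one (Matrix.reindexAlgEquiv F F (finSumFinEquiv (m := 2) (n := 2)))

theorem m5_transpose (g : Matrix (Fin 2 ⊕ Fin 2) (Fin 2 ⊕ Fin 2) F) :
    m5 F g.transpose = (m5 F g).transpose := rfl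

theorem m5_injective : Function.Injective (m5 F) :=
  (Matrix.reindexAlgEquiv F F (finSumFinEquiv (m := 2) (n := 2))).injective

theorem m5_neg (g : Matrix (Fin 2 ⊕ Fin 2) (Fin 2 ⊕ Fin 2) F) : m5 F (-g) = - m5 F g := rfl

theorem m5_J : m5 F (Matrix.J (Fin 2) F) = alt4 0 (-1) 0 0 1 0 := by
  ext a b
  fin_cases a <;> fin_cases b <;>
    simp [m5, alt4, Matrix.J, finSumFinEquiv, Fin.addCases, Matrix.fromBlocks]

theorem conj_J (g : G5 F) : m5 F g * alt4 0 (-1) 0 0 1 0 * (m5 F g).transpose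
    = alt4 0 (-1) 0 0 1 0 := by
  have h := SymplecticGroup.mem_iff.1 g.2
  have h1 := congrArg (m5 F) h
  rwa [m5_mul, m5_mul, m5_transpose, m5_J] at h1

theorem det_m5 (g : G5 F) : (m5 F g).det = 1 := by
  have h := congrArg pf4 (conj_J F g)
  rw [pf4_conj] at h
  simp [pf4, alt4] at h
  exact h

/-- The space `J^⊥`. -/
def i5 : (Unit ⊕ (Fin 2 ⊕ Fin 2) → F) →ₗ[F] Matrix (Fin 4) (Fin 4) F where
  toFun v := alt4 (v (.inr (.inl 0))) (v (.inl ())) (v (.inr (.inl 1))) (v (.inr (.inr 0)))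
    (v (.inl ())) (v (.inr (.inr 1)))
  map_add' u v := by
    ext a b; fin_cases a <;> fin_cases b <;> simp [alt4, add_comm]
  map_smul' c v := by
    ext a b; fin_cases a <;> fin_cases b <;> simp [alt4]

theorem i5_apply (v : Unit ⊕ (Fin 2 ⊕ Fin 2) → F) : i5 F v =
    alt4 (v (.inr (.inl 0))) (v (.inl ())) (v (.inr (.inl 1))) (v (.inr (.inr 0)))
    (v (.inl ())) (v (.inr (.inr 1))) := rfl

/-- Coordinates. -/
def k5 : Matrix (Fin 4) (Fin 4) F →ₗ[F] (Unit ⊕ (Fin 2 ⊕ Fin 2) → F) where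
  toFun M := Sum.elim (fun _ => M 0 2) (Sum.elim ![M 0 1, M 0 3] ![M 2 3, M 1 2])
  map_add' u v := by
    funext j; rcases j with j | j | j
    · rfl
    · fin_cases j <;> rfl
    · fin_cases j <;> rfl
  map_smul' c v := by
    funext j; rcases j with j | j | j
    · rfl
    · fin_cases j <;> rfl
    · fin_cases j <;> rfl

theorem k5_i5 (v : Unit ⊕ (Fin 2 ⊕ Fin 2) → F) : k5 F (i5 F v) = v := by
  funext j
  rcases j with j | j | j
  · rfl
  · fin_cases j <;> rfl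
  · fin_cases j <;> rfl

theorem ortho5 (g : G5 F) (x0 x1 x2 y0 y2 : F) :
    (m5 F g * alt4 x0 x1 x2 y0 x1 y2 * (m5 F g).transpose) 0 2
      = - (m5 F g * alt4 x0 x1 x2 y0 x1 y2 * (m5 F g).transpose) 1 3 := by
  have h1 := pf4_conj (m5 F g) x0 x1 x2 y0 x1 y2
  have h2 := pf4_conj (m5 F g) x0 (x1 - 1) x2 y0 (x1 + 1) y2
  have h3 : m5 F g * alt4 x0 (x1 - 1) x2 y0 (x1 + 1) y2 * (m5 F g).transpose
      = m5 F g * alt4 x0 x1 x2 y0 x1 y2 * (m5 F g).transpose + alt4 0 (-1) 0 0 1 0 := by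
    rw [← conj_J F g, ← add_mul, ← mul_add]
    congr 2
    ext a b
    fin_cases a <;> fin_cases b <;> simp [alt4] <;> ring
  rw [h3] at h2
  rw [det_m5] at h1 h2
  set M := m5 F g * alt4 x0 x1 x2 y0 x1 y2 * (m5 F g).transpose with hM
  simp only [pf4, Matrix.add_apply] at h1 h2
  simp only [alt4, Matrix.of_apply, Matrix.cons_val', Matrix.cons_val_zero, Matrix.cons_val_one,
    Matrix.cons_val] at h2
  linear_combination h2 - h1

theorem i5_k5 (g : G5 F) (v : Unit ⊕ (Fin 2 ⊕ Fin 2) → F) :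
    i5 F (k5 F (m5 F g * i5 F v * (m5 F g).transpose))
      = m5 F g * i5 F v * (m5 F g).transpose := by
  rw [i5_apply F v]
  have h1 := alt4_conj (m5 F g) (v (.inr (.inl 0))) (v (.inl ())) (v (.inr (.inl 1)))
    (v (.inr (.inr 0))) (v (.inl ())) (v (.inr (.inr 1)))
  rw [← ortho5] at h1
  conv_rhs => rw [← h1]
  rfl

theorem q_k5 (g : G5 F) (v : Unit ⊕ (Fin 2 ⊕ Fin 2) → F) :
    qfOdd 2 F (k5 F (m5 F g * i5 F v * (m5 F g).transpose)) = qfOdd 2 F v := by
  have h1 := pf4_conj (m5 F g) (v (.inr (.inl 0))) (v (.inl ())) (v (.inr (.inl 1)))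
    (v (.inr (.inr 0))) (v (.inl ())) (v (.inr (.inr 1)))
  have h2 := ortho5 F g (v (.inr (.inl 0))) (v (.inl ())) (v (.inr (.inl 1)))
    (v (.inr (.inr 0))) (v (.inr (.inr 1)))
  rw [← i5_apply] at h1 h2
  rw [det_m5] at h1
  rw [qfOdd_apply, qfOdd_apply, Fin.sum_univ_two, Fin.sum_univ_two]
  set M := m5 F g * i5 F v * (m5 F g).transpose with hM
  change M 0 2 ^ 2 + (M 0 1 * M 2 3 + M 0 3 * M 1 2) = _
  rw [pf4] at h1
  linear_combination h1 + M 0 2 * h2

/-- The action `X ↦ g X gᵀ`. -/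
def r5 (g : G5 F) : Matrix (Fin 4) (Fin 4) F →ₗ[F] Matrix (Fin 4) (Fin 4) F :=
  LinearMap.mulRight F (m5 F g).transpose ∘ₗ LinearMap.mulLeft F (m5 F g)

theorem r5_apply (g : G5 F) (X : Matrix (Fin 4) (Fin 4) F) :
    r5 F g X = m5 F g * X * (m5 F g).transpose := rfl

/-- `Sp₄ → O₅`. -/
noncomputable def φ5 : G5 F →* OGrp (qfOdd 2 F) :=
  actHom (qfOdd 2 F) (i5 F) (k5 F) (k5_i5 F) (r5 F)
    (fun x => by rw [r5_apply, OneMemClass.coe_one, m5_one]; simp)
    (fun g h x => by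
      simp only [r5_apply]
      rw [Submonoid.coe_mul, m5_mul, Matrix.transpose_mul]
      simp only [mul_assoc])
    (fun g v => by rw [r5_apply, i5_k5])
    (fun g v => by rw [r5_apply, q_k5])

/-- Minus one. -/
def n5 : G5 F := ⟨-1, SymplecticGroup.neg_mem (one_mem _)⟩

theorem n5_coe : ((n5 F : G5 F) : Matrix (Fin 2 ⊕ Fin 2) (Fin 2 ⊕ Fin 2) F) = -1 := rfl

theorem ker_φ5 (h2 : (2 : F) ≠ 0) (g : G5 F) : g ∈ (φ5 F).ker ↔ g = 1 ∨ g = n5 F := by
  rw [φ5, mem_ker_actHom]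
  constructor
  · intro h
    have h0 : m5 F g = 1 ∨ m5 F g = -1 := by
      refine scalar_of_alt (m5 F g) (m5 F (g⁻¹ : G5 F)).transpose ?_ ?_
      · rw [← Matrix.transpose_mul, ← m5_mul, ← Submonoid.coe_mul, inv_mul_cancel,
          OneMemClass.coe_one, m5_one, Matrix.transpose_one]
      · intro x0 x1 x2 y0 y1 y2 _
        obtain ⟨c, rfl⟩ : ∃ c : F, y1 = x1 + c + c := ⟨(y1 - x1) / 2, by field_simp; ring⟩
        have h3 := h (Sum.elim (fun _ => x1 + c) (Sum.elim ![x0, x2] ![y0, y2]))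
        rw [r5_apply, i5_apply] at h3
        simp only [Sum.elim_inl, Sum.elim_inr, Matrix.cons_val_zero, Matrix.cons_val_one] at h3
        have h4 : alt4 x0 x1 x2 y0 (x1 + c + c) y2
            = alt4 x0 (x1 + c) x2 y0 (x1 + c) y2 + c • alt4 0 (-1) 0 0 1 0 := by
          ext a b
          fin_cases a <;> fin_cases b <;> simp [alt4] <;> ring
        rw [h4, mul_add, add_mul, h3, Matrix.mul_smul, Matrix.smul_mul, conj_J]
    rcases h0 with h0 | h0
    · left
      exact Subtype.ext (m5_injective F (by rw [h0, OneMemClass.coe_one, m5_one]))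
    · right
      exact Subtype.ext (m5_injective F (by rw [h0, n5_coe, m5_neg, m5_one]))
  · rintro (rfl | rfl) v
    · rw [r5_apply, OneMemClass.coe_one, m5_one]; simp
    · rw [r5_apply, n5_coe, m5_neg, m5_one]; simp

end Five

theorem tv_pow_char {l : Type*} [Fintype l] [DecidableEq l] {F : Type*} [Field F] (p : ℕ)
    [CharP F p] (w : l ⊕ l → F) (c : F) : (tv w c) ^ p = 1 := by
  have h : ∀ k : ℕ, (tv w c) ^ k = tv w ((k : F) * c) := by
    intro k
    induction k with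
    | zero => rw [pow_zero, Nat.cast_zero, zero_mul, tv_zero]
    | succ k ih => rw [pow_succ, ih, ← tv_add, Nat.cast_succ, add_mul, one_mul]
  rw [h, CharP.cast_eq_zero, zero_mul, tv_zero]

/-- `PΩ₅(q) ≅ PSp₄(q)`. -/
theorem iso5 {F : Type*} [Field F] [Fintype F] (hodd : Odd (Fintype.card F)) :
    Nonempty (Cfsg.POmega F (Cfsg.quadFormOdd 2 F) ≃* Cfsg.PSp 2 F) := by
  have h2 := two_ne_zero_of_odd hodd
  have hchar := ringChar.charP F
  have hp : Fact (ringChar F).Prime := ⟨CharP.char_is_prime F (ringChar F)⟩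
  have hnegc : n5 F ∈ Subgroup.center (G5 F) := by
    rw [Subgroup.mem_center_iff]
    intro g
    apply Subtype.ext
    rw [Submonoid.coe_mul, Submonoid.coe_mul, n5_coe]
    simp
  have hneg1 : n5 F = 1 ↔ (2 : F) = 0 := by
    refine iff_of_false ?_ h2
    intro h
    have h1 := congrArg (fun g : G5 F => (g : Matrix (Fin 2 ⊕ Fin 2) (Fin 2 ⊕ Fin 2) F)
      (Sum.inl 0) (Sum.inl 0)) h
    simp only [n5_coe] at h1
    simp at h1
    apply h2
    linear_combination -h1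
  have hodd' : Odd (ringChar F) := by
    apply hp.out.odd_of_ne_two
    intro h
    apply h2
    have := CharP.cast_eq_zero F (ringChar F)
    rw [h] at this
    exact_mod_cast this
  refine iso_main (Q := qfOdd 2 F) (qfOdd_nondegenerate 2 F h2) (by simp) (φ5 F) ?_ (n5 F)
    hnegc hneg1 (ker_φ5 F h2) (p := ringChar F) ?_ (T := {g | ∃ w c, g = tv w c})
    (tvGroup_eq_top (Fin 2)) ?_ (fun h => absurd h h2)
  · rw [card_OGrp_eq, ClassSp.card_fin]
    have h3 := Cfsg.Agent.S0286.result (F := F) rfl hodd 2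
    rw [coe_qfOdd, h3]
    simp [Finset.prod_range_succ]
    ring
  · obtain ⟨k, hk⟩ := hodd'
    have hsq : n5 F * n5 F = 1 := by
      apply Subtype.ext
      rw [Submonoid.coe_mul, n5_coe]
      simp
    rw [hk, pow_succ, pow_mul, pow_two, hsq, one_pow, one_mul]
  · rintro _ ⟨w, c, rfl⟩
    exact tv_pow_char _ w c

end Cfsg.Agent.ClassO
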